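import Mathlib

/-!
# Cyclic extensions of abelian groups

Given an abelian group `N`, an automorphism `β` of `N` with `β ^ n = 1` (`n > 0`) and `a₀ ∈ N` with `β a₀ = a₀`
there is a group `M ≥ N` with an element `b` such that `b x b⁻¹ = β x` for `x ∈ N` and `b ^ n = a₀`.
-/

set_option autoImplicit false

namespace Cfsg.Agent.H489

universe u

open SemidirectProduct in
/-- **Cyclic extensions** of an abelian group. -/
theorem exists_cyclicExt {N : Type u} [CommGroup N] (β : MulAut N) (n : ℕ) (hn : 0 < n)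
    (hβ : β ^ n = 1) (a₀ : N) (ha : β a₀ = a₀) :
    ∃ (M : Type u) (_ : Group M) (j : N →* M) (b : M), Function.Injective j ∧
      (∀ x, b * j x * b⁻¹ = j (β x)) ∧ b ^ n = j a₀ := by
  obtain ⟨φ, hφ⟩ : ∃ φ : Multiplicative ℤ →* MulAut N, ∀ k : ℤ, φ (Multiplicative.ofAdd k) = β ^ k :=
    ⟨zpowersHom _ β, fun k => by simp⟩
  have hfix : ∀ k : ℤ, (β ^ k) a₀ = a₀ := by
    intro k
    have h : β ∈ MulAction.stabilizer (MulAut N) a₀ := ha
    exact Subgroup.zpow_mem _ h k
  let w : N ⋊[φ] Multiplicative ℤ := inr (Multiplicative.ofAdd (n : ℤ)) * (inl a₀)⁻¹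
  have hw : w = inr (Multiplicative.ofAdd (n : ℤ)) * (inl a₀)⁻¹ := rfl
  have hinl : ∀ i : N, (inl i : N ⋊[φ] Multiplicative ℤ) * inr (Multiplicative.ofAdd (n : ℤ))
      = inr (Multiplicative.ofAdd (n : ℤ)) * inl i := by
    intro i
    have h1 := inl_aut (φ := φ) (Multiplicative.ofAdd (n : ℤ)) i
    rw [hφ, zpow_natCast, hβ, MulAut.one_apply, map_inv, eq_mul_inv_iff_mul_eq] at h1
    exact h1
  have hinr : ∀ k : Multiplicative ℤ, (inr k : N ⋊[φ] Multiplicative ℤ) * inl a₀ = inl a₀ * inr k := by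
    intro k
    have h1 := inl_aut (φ := φ) k a₀
    have h2 : φ k a₀ = a₀ := by
      rw [← ofAdd_toAdd k, hφ]
      exact hfix _
    rw [h2, map_inv, eq_mul_inv_iff_mul_eq] at h1
    exact h1.symm
  have h1 : ∀ i : N, Commute (inl i) w := by
    intro i
    rw [hw]
    refine Commute.mul_right (hinl i) (Commute.inv_right ?_)
    show (inl i : N ⋊[φ] Multiplicative ℤ) * inl a₀ = inl a₀ * inl i
    rw [← map_mul, ← map_mul, mul_comm]
  have h2 : ∀ k : Multiplicative ℤ, Commute (inr k) w := by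
    intro k
    rw [hw]
    refine Commute.mul_right ?_ (Commute.inv_right (hinr k))
    show (inr k : N ⋊[φ] Multiplicative ℤ) * inr _ = inr _ * inr k
    rw [← map_mul, ← map_mul, mul_comm]
  have hcen : w ∈ Subgroup.center (N ⋊[φ] Multiplicative ℤ) := by
    rw [Subgroup.mem_center_iff]
    intro g
    rw [← inl_left_mul_inr_right g]
    exact ((h1 _).mul_left (h2 _)).eq
  have hnorm : (Subgroup.zpowers w).Normal :=
    ⟨by
      intro x hx g
      have hxc : x ∈ Subgroup.center (N ⋊[φ] Multiplicative ℤ) :=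
        (Subgroup.zpowers_le.mpr hcen) hx
      rw [Subgroup.mem_center_iff.mp hxc g, mul_inv_cancel_right]
      exact hx⟩
  refine ⟨(N ⋊[φ] Multiplicative ℤ) ⧸ Subgroup.zpowers w, inferInstance,
    (QuotientGroup.mk' _).comp inl, QuotientGroup.mk' _ (inr (Multiplicative.ofAdd 1)), ?_, ?_, ?_⟩
  · rw [injective_iff_map_eq_one]
    intro x hx
    rw [MonoidHom.comp_apply, QuotientGroup.mk'_apply, QuotientGroup.eq_one_iff,
      Subgroup.mem_zpowers_iff] at hx
    obtain ⟨k, hk⟩ := hx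
    have h3 := congrArg (rightHom : N ⋊[φ] Multiplicative ℤ →* Multiplicative ℤ) hk
    rw [map_zpow, hw, map_mul, map_inv, rightHom_inl, rightHom_inl, rightHom_inr, inv_one, mul_one,
      ← ofAdd_zsmul, ofAdd_eq_one, smul_eq_mul] at h3
    have hk0 : k = 0 := by
      rcases mul_eq_zero.mp h3 with h | h
      · exact h
      · exfalso; omega
    rw [hk0, zpow_zero] at hk
    exact (inl_injective (hk.symm.trans (map_one _).symm))
  · intro x
    rw [MonoidHom.comp_apply, MonoidHom.comp_apply, ← map_inv, ← map_mul, ← map_mul, ← map_inv inr,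
      ← inl_aut, hφ, zpow_one]
  · rw [MonoidHom.comp_apply, ← map_pow, ← map_pow, ← ofAdd_nsmul, nsmul_eq_mul, mul_one,
      QuotientGroup.mk'_apply, QuotientGroup.mk'_apply, eq_comm, QuotientGroup.eq]
    have : (inl a₀ : N ⋊[φ] Multiplicative ℤ)⁻¹ * inr (Multiplicative.ofAdd (n : ℤ)) = w := by
      rw [hw, ← map_inv, hinl]
    rw [this]
    exact Subgroup.mem_zpowers w

end Cfsg.Agent.H489
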