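import Cfsg.Agent.H489.Meta

/-! # Stem extensions of dihedral groups: the upper bound -/

set_option autoImplicit false

open scoped commutatorElement

namespace Cfsg.Agent.H489

open Subgroup

theorem closure_dihedral (n : ℕ) :
    closure {(DihedralGroup.r 1 : DihedralGroup n), DihedralGroup.sr 0} = ⊤ := by
  rw [eq_top_iff]
  rintro x -
  have hr : (DihedralGroup.r 1 : DihedralGroup n) ∈
      closure {(DihedralGroup.r 1 : DihedralGroup n), DihedralGroup.sr 0} :=
    subset_closure (Set.mem_insert _ _)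
  have hs : (DihedralGroup.sr 0 : DihedralGroup n) ∈
      closure {(DihedralGroup.r 1 : DihedralGroup n), DihedralGroup.sr 0} :=
    subset_closure (Set.mem_insert_of_mem _ rfl)
  rcases x with (i | i)
  · obtain ⟨k, rfl⟩ := ZMod.intCast_surjective i
    rw [← DihedralGroup.r_one_zpow]
    exact Subgroup.zpow_mem _ hr k
  · obtain ⟨k, rfl⟩ := ZMod.intCast_surjective i
    have : (DihedralGroup.sr (k : ZMod n) : DihedralGroup n) = DihedralGroup.sr 0 * DihedralGroup.r 1 ^ k := by
      rw [DihedralGroup.r_one_zpow, DihedralGroup.sr_mul_r, zero_add]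
    rw [this]
    exact mul_mem hs (Subgroup.zpow_mem _ hr k)

/-- Upper bound for the kernel of a stem extension of the dihedral group. -/
theorem dihedral_upper {Γ : Type*} [Group Γ] [Finite Γ] (n : ℕ) (hn : 0 < n) (σ : Γ →* DihedralGroup n)
    (hσ : Function.Surjective σ ∧ σ.ker ≤ center Γ ∧ σ.ker ≤ commutator Γ) :
    IsCyclic σ.ker ∧ Nat.card σ.ker ∣ Nat.gcd n 2 := by
  have h := upper σ hσ (DihedralGroup.r 1) (DihedralGroup.sr 0) (closure_dihedral n) n 2 (2 * n - 1) 0
    (by omega) (DihedralGroup.r_one_pow_n (n := n)) (by rw [pow_zero, pow_two, DihedralGroup.sr_mul_self]) (by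
      rw [mul_inv_eq_iff_eq_mul, DihedralGroup.sr_mul_r, DihedralGroup.r_one_pow, DihedralGroup.r_mul_sr]
      congr 1
      rw [Nat.cast_sub (by omega)]
      push_cast
      rw [CharP.cast_eq_zero]
      ring)
  obtain ⟨hcyc, h1, -, -⟩ := h
  refine ⟨hcyc, ?_⟩
  have hord : orderOf ⁅(DihedralGroup.sr 0 : DihedralGroup n), (DihedralGroup.r 1 : DihedralGroup n)⁆ = n / Nat.gcd n 2 := by
    have h2 : ⁅(DihedralGroup.sr 0 : DihedralGroup n), (DihedralGroup.r 1 : DihedralGroup n)⁆
        = ((DihedralGroup.r 1 : DihedralGroup n) ^ 2)⁻¹ := by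
      rw [commutatorElement_def, DihedralGroup.sr_mul_r, DihedralGroup.inv_sr, DihedralGroup.sr_mul_sr,
        DihedralGroup.inv_r, DihedralGroup.r_mul_r, DihedralGroup.r_one_pow, DihedralGroup.inv_r]
      congr 1
      push_cast
      ring
    rw [h2, orderOf_inv, orderOf_pow' _ two_ne_zero, DihedralGroup.orderOf_r_one]
  rw [hord] at h1
  obtain ⟨g, hg⟩ : ∃ g, Nat.gcd n 2 = g := ⟨_, rfl⟩
  rw [hg] at h1 ⊢
  have hg0 : 0 < g := hg ▸ Nat.gcd_pos_of_pos_left _ hn
  obtain ⟨q, hq⟩ : g ∣ n := hg ▸ Nat.gcd_dvd_left n 2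
  have hq0 : 0 < q := by
    rcases Nat.eq_zero_or_pos q with rfl | h
    · omega
    · exact h
  have h3 : n / g = q := by
    rw [hq]
    exact Nat.mul_div_cancel_left _ hg0
  have h4 : Nat.card σ.ker * q ∣ g * q := by
    rw [← hq, ← h3]
    exact h1
  exact Nat.dvd_of_mul_dvd_mul_right hq0 h4

end Cfsg.Agent.H489
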