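import Cfsg.Agent.H489.Meta
import Cfsg.Agent.H489.CyclicExt

/-!
# Metacyclic groups given by a presentation

`MG m n r t = ⟨a, b | a ^ m = 1, b ^ n = a ^ t, b a b⁻¹ = a ^ r⟩`. If `m, n > 0`, `r ^ n ≡ 1 (mod m)` and
`r t ≡ t (mod m)`, then `a` has order `m`, and the group is finite.
-/

set_option autoImplicit false

open scoped commutatorElement

namespace Cfsg.Agent.H489

open Subgroup

/-- The relators of the metacyclic group. -/
def rels (m n r t : ℕ) : Set (FreeGroup Bool) :=
  {FreeGroup.of true ^ m, (FreeGroup.of false) ^ n * (FreeGroup.of true ^ t)⁻¹,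
    FreeGroup.of false * FreeGroup.of true * (FreeGroup.of false)⁻¹ * (FreeGroup.of true ^ r)⁻¹}

/-- The metacyclic group with parameters `m`, `n`, `r`, `t`. -/
abbrev MG (m n r t : ℕ) : Type := PresentedGroup (rels m n r t)

section

variable (m n r t : ℕ)

/-- The generator of the normal cyclic subgroup. -/
def xg : MG m n r t := PresentedGroup.of true

/-- The second generator. -/
def yg : MG m n r t := PresentedGroup.of false

theorem xg_pow : xg m n r t ^ m = 1 := by
  have h : PresentedGroup.mk (rels m n r t) (FreeGroup.of true ^ m) = 1 :=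
    PresentedGroup.one_of_mem (by unfold rels; simp)
  rw [map_pow] at h
  exact h

theorem yg_pow : yg m n r t ^ n = xg m n r t ^ t := by
  have h : PresentedGroup.mk (rels m n r t) ((FreeGroup.of false) ^ n * (FreeGroup.of true ^ t)⁻¹) = 1 :=
    PresentedGroup.one_of_mem (by unfold rels; simp)
  rw [map_mul, map_inv, map_pow, map_pow, mul_inv_eq_one] at h
  exact h

theorem yxy : yg m n r t * xg m n r t * (yg m n r t)⁻¹ = xg m n r t ^ r := by
  have h : PresentedGroup.mk (rels m n r t)
      (FreeGroup.of false * FreeGroup.of true * (FreeGroup.of false)⁻¹ * (FreeGroup.of true ^ r)⁻¹) = 1 :=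
    PresentedGroup.one_of_mem (by unfold rels; simp)
  rw [map_mul, map_mul, map_mul, map_inv, map_inv, map_pow, mul_inv_eq_one] at h
  exact h

theorem closure_xy : closure {xg m n r t, yg m n r t} = ⊤ := by
  have h := PresentedGroup.closure_range_of (rels m n r t)
  rw [← h]
  congr 1
  ext g
  constructor
  · rintro (rfl | rfl)
    · exact ⟨true, rfl⟩
    · exact ⟨false, rfl⟩
  · rintro ⟨b, rfl⟩
    cases b
    · exact Or.inr rfl
    · exact Or.inl rfl

/-- Universal property. -/
theorem exists_lift {H : Type*} [Group H] (a b : H) (h1 : a ^ m = 1) (h2 : b ^ n = a ^ t)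
    (h3 : b * a * b⁻¹ = a ^ r) : ∃ f : MG m n r t →* H, f (xg m n r t) = a ∧ f (yg m n r t) = b := by
  let F : Bool → H := fun c => if c then a else b
  have hF : ∀ w ∈ rels m n r t, FreeGroup.lift F w = 1 := by
    intro w hw
    rcases hw with rfl | rfl | rfl
    · rw [map_pow, FreeGroup.lift_apply_of]; exact h1
    · rw [map_mul, map_inv, map_pow, map_pow, FreeGroup.lift_apply_of, FreeGroup.lift_apply_of,
        mul_inv_eq_one]
      exact h2
    · rw [map_mul, map_mul, map_mul, map_inv, map_inv, map_pow, FreeGroup.lift_apply_of,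
        FreeGroup.lift_apply_of, mul_inv_eq_one]
      exact h3
  refine ⟨PresentedGroup.toGroup hF, ?_, ?_⟩
  · exact PresentedGroup.toGroup.of hF
  · exact PresentedGroup.toGroup.of hF

end

section

variable {m n r t : ℕ}

/-- The order of `x`. -/
theorem orderOf_xg (hm : 0 < m) (hn : 0 < n) (hrn : r ^ n ≡ 1 [MOD m]) (hrt : r * t ≡ t [MOD m]) :
    orderOf (xg m n r t) = m := by
  have : NeZero m := ⟨hm.ne'⟩
  have hr1 : ((r : ZMod m)) ^ n = 1 := by
    have := (ZMod.natCast_eq_natCast_iff _ _ _).mpr hrn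
    push_cast at this
    exact this
  let u : (ZMod m)ˣ := Units.ofPowEqOne (r : ZMod m) n hr1 hn.ne'
  have hu : (u : ZMod m) = r := rfl
  have hun : u ^ n = 1 := Units.ext (by rw [Units.val_pow_eq_pow_val, hu, hr1, Units.val_one])
  obtain ⟨β, hβ⟩ : ∃ β : MulAut (Multiplicative (ZMod m)), ∀ i : ZMod m,
      β (Multiplicative.ofAdd i) = Multiplicative.ofAdd ((r : ZMod m) * i) :=
    ⟨AddEquiv.toMultiplicative (Multiplicative.toAdd (AddAut.mulLeft u)), fun i => rfl⟩
  have hβk : ∀ (k : ℕ) (i : ZMod m), (β ^ k) (Multiplicative.ofAdd i)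
      = Multiplicative.ofAdd ((r : ZMod m) ^ k * i) := by
    intro k
    induction k with
    | zero => intro i; rw [pow_zero, pow_zero, one_mul]; rfl
    | succ k ih =>
      intro i
      rw [pow_succ, MulAut.mul_apply, hβ, ih, pow_succ, mul_assoc]
  have hβn : β ^ n = 1 := by
    ext i
    have := hβk n (Multiplicative.toAdd i)
    rw [hr1, one_mul] at this
    exact this
  have hβt : β (Multiplicative.ofAdd (t : ZMod m)) = Multiplicative.ofAdd (t : ZMod m) := by
    rw [hβ]
    congr 1
    have := (ZMod.natCast_eq_natCast_iff _ _ _).mpr hrt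
    push_cast at this
    exact this
  obtain ⟨M, _, j, b, hj, hjb, hbn⟩ := exists_cyclicExt β n hn hβn _ hβt
  have hone : ∀ k : ℕ, Multiplicative.ofAdd (1 : ZMod m) ^ k = Multiplicative.ofAdd (k : ZMod m) := by
    intro k
    rw [← ofAdd_nsmul, nsmul_one]
  obtain ⟨f, hf1, hf2⟩ := exists_lift m n r t (j (Multiplicative.ofAdd 1)) b
    (by rw [← map_pow, hone, ZMod.natCast_self, ofAdd_zero, map_one])
    (by rw [hbn, ← map_pow, hone])
    (by rw [hjb, hβ, mul_one, ← map_pow, hone])
  apply Nat.dvd_antisymm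
  · exact orderOf_dvd_of_pow_eq_one (xg_pow m n r t)
  · have h1 : orderOf (f (xg m n r t)) ∣ orderOf (xg m n r t) := orderOf_map_dvd f _
    rw [hf1, orderOf_injective j hj] at h1
    have h2 : orderOf (Multiplicative.ofAdd (1 : ZMod m)) = m := by
      rw [orderOf_ofAdd_eq_addOrderOf, ZMod.addOrderOf_one]
    rwa [h2] at h1

/-- `⟨x⟩` is normal. -/
theorem normal_zpowers_xg (hm : 0 < m) : (zpowers (xg m n r t)).Normal := by
  have hfin : Finite (zpowers (xg m n r t)) :=
    finite_zpowers.mpr (isOfFinOrder_iff_pow_eq_one.mpr ⟨m, hm, xg_pow m n r t⟩)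
  rw [← normalizer_eq_top_iff, eq_top_iff, ← closure_xy m n r t, closure_le]
  have : Finite (((zpowers (xg m n r t) : Subgroup (MG m n r t)) : Set (MG m n r t))) := hfin
  rintro g (rfl | rfl)
  · exact le_normalizer (mem_zpowers _)
  · apply mem_normalizer_fintype
    rintro _ ⟨k, rfl⟩
    refine ⟨r * k, ?_⟩
    show xg m n r t ^ ((r : ℤ) * k) = yg m n r t * xg m n r t ^ k * (yg m n r t)⁻¹
    rw [← conj_zpow, yxy, ← zpow_natCast, ← zpow_mul]

theorem finite_MG (hm : 0 < m) (hn : 0 < n) : Finite (MG m n r t) := by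
  have hN := normal_zpowers_xg (m := m) (n := n) (r := r) (t := t) hm
  have hfin : Finite (zpowers (xg m n r t)) :=
    finite_zpowers.mpr (isOfFinOrder_iff_pow_eq_one.mpr ⟨m, hm, xg_pow m n r t⟩)
  have h1 : zpowers (QuotientGroup.mk' (zpowers (xg m n r t)) (yg m n r t)) = ⊤ := by
    have h2 := congrArg (Subgroup.map (QuotientGroup.mk' (zpowers (xg m n r t)))) (closure_xy m n r t)
    rw [MonoidHom.map_closure, Set.image_pair, ← MonoidHom.range_eq_map,
      MonoidHom.range_eq_top_of_surjective _ (QuotientGroup.mk'_surjective _)] at h2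
    rw [eq_top_iff, ← h2, closure_le]
    rintro g (rfl | rfl)
    · have h5 : QuotientGroup.mk' (zpowers (xg m n r t)) (xg m n r t) = 1 :=
        (QuotientGroup.eq_one_iff (xg m n r t)).mpr (mem_zpowers _)
      rw [h5]
      exact one_mem _
    · exact mem_zpowers _
  have h3 : Finite (MG m n r t ⧸ zpowers (xg m n r t)) := by
    have h4 : Finite (zpowers (QuotientGroup.mk' (zpowers (xg m n r t)) (yg m n r t))) := by
      apply finite_zpowers.mpr
      rw [isOfFinOrder_iff_pow_eq_one]
      refine ⟨n, hn, ?_⟩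
      rw [← map_pow, yg_pow, QuotientGroup.mk'_apply, QuotientGroup.eq_one_iff]
      exact ⟨t, by simp⟩
    rw [h1] at h4
    exact Finite.of_equiv _ topEquiv.toEquiv
  exact Finite.of_subgroup_quotient (zpowers (xg m n r t))

/-- The kernel of the map between two metacyclic groups. -/
theorem ker_eq {m n r r' t k : ℕ} (hrr : r' ≡ r [MOD m])
    (hc : xg (m * k) n r' t ^ m ∈ center (MG (m * k) n r' t))
    (f : MG (m * k) n r' t →* MG m n r t) (hfx : f (xg (m * k) n r' t) = xg m n r t)
    (hfy : f (yg (m * k) n r' t) = yg m n r t) :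
    f.ker = zpowers (xg (m * k) n r' t ^ m) := by
  apply le_antisymm
  · have hnorm : (zpowers (xg (m * k) n r' t ^ m)).Normal := ⟨by
      intro z hz g
      have hzc : z ∈ center (MG (m * k) n r' t) := (zpowers_le.mpr hc) hz
      rw [mem_center_iff.mp hzc g, mul_inv_cancel_right]
      exact hz⟩
    set π := QuotientGroup.mk' (zpowers (xg (m * k) n r' t ^ m)) with hπ
    have h1 : π (xg (m * k) n r' t) ^ m = 1 := by
      rw [← map_pow]
      exact (QuotientGroup.eq_one_iff _).mpr (mem_zpowers _)
    obtain ⟨g, hgx, hgy⟩ := exists_lift m n r t (π (xg (m * k) n r' t)) (π (yg (m * k) n r' t)) h1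
      (by rw [← map_pow, yg_pow, map_pow])
      (by
        rw [← map_inv, ← map_mul, ← map_mul, yxy, map_pow]
        exact pow_eq_pow_iff_modEq.mpr (hrr.of_dvd (orderOf_dvd_of_pow_eq_one h1)))
    have h2 : g.comp f = π := by
      apply PresentedGroup.ext
      intro b
      cases b
      · show g (f (yg (m * k) n r' t)) = π (yg (m * k) n r' t)
        rw [hfy, hgy]
      · show g (f (xg (m * k) n r' t)) = π (xg (m * k) n r' t)
        rw [hfx, hgx]
    intro w hw
    have h3 : π w = 1 := by
      rw [← h2, MonoidHom.comp_apply, MonoidHom.mem_ker.mp hw, map_one]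
    exact (QuotientGroup.eq_one_iff _).mp h3
  · rw [zpowers_le, MonoidHom.mem_ker, map_pow, hfx, xg_pow]

end

end Cfsg.Agent.H489
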